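import Cfsg.Agent.H551.HT.RhoEx
import Cfsg.Agent.H139.HT.Lin

/-!
# S4933: `exists_rhoGL` (form of helper139)
-/

set_option autoImplicit false

open Cfsg
open scoped MatrixGroups

namespace Cfsg.Agent.H551.HT

open Cfsg.Agent.H139.HT

universe u

theorem exists_rhoGL (K : Type u) [Field K] [Finite K] {p : ℕ} (hp : p.Prime) (hp2 : p ≠ 2) (hpK : ¬ p ∣ Nat.card K)
    {f : ℕ} (hf : orderOf (Nat.card K : ZMod p) = f) (ho : Odd f) {M : Ideal AlgInt} (hM : IsPModular p M) :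
    ∃ c : IrrCharacter (GL (Fin f) K), RhoGL p M K (RingHom.id K) f c := by
  have : Fact p.Prime := ⟨hp⟩
  obtain ⟨c, h, -, h2⟩ := exists_rho K hpK hf
  exact ⟨c, h.cusp, h2 ho hp2, h.mem hM, h.ndvd, fun τ ⟨k, hk⟩ A => h.map τ k hk A⟩

end Cfsg.Agent.H551.HT
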